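import Cfsg.Agent.Linear.Torus
import Mathlib.GroupTheory.OrderOfElement
import Mathlib.LinearAlgebra.Matrix.ProjectiveSpecialLinearGroup

/-!
# Torus elements of `PSL(2, q)`
-/

set_option autoImplicit false

namespace Cfsg.Agent.H73.TwoP

open Matrix
open scoped MatrixGroups

variable (F : Type*) [Field F] [Fintype F] [DecidableEq F]

theorem center_sl_two (A : SL(2, F)) (hA : A ∈ Subgroup.center SL(2, F)) : A = 1 ∨ A = -1 := by
  obtain ⟨r, hr, hrA⟩ := Matrix.SpecialLinearGroup.mem_center_iff.1 hA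
  rw [Fintype.card_fin, sq_eq_one_iff] at hr
  rcases hr with h | h
  · refine Or.inl (Subtype.ext ?_)
    rw [← hrA, h]; simp
  · refine Or.inr (Subtype.ext ?_)
    rw [← hrA, h]; ext i j; fin_cases i <;> fin_cases j <;> simp

theorem exists_orderOf_psl_even (hF : Even (Fintype.card F)) (m : ℕ)
    (hm : m = Fintype.card F - 1 ∨ m = Fintype.card F + 1) :
    ∃ x : ProjectiveSpecialLinearGroup (Fin 2) F, orderOf x = m := by
  have h1 : (-1 : F) = 1 := by
    obtain ⟨p, hp⟩ := CharP.exists F
    obtain ⟨n, hp', hn⟩ := FiniteField.card F p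
    have h2 : p = 2 := by
      have := even_iff_two_dvd.1 hF
      rw [hn] at this
      exact ((Nat.prime_dvd_prime_iff_eq Nat.prime_two hp').1 (Nat.prime_two.dvd_of_dvd_pow this)).symm
    subst h2
    exact CharTwo.neg_eq 1
  have hbot : Subgroup.center SL(2, F) = ⊥ := by
    rw [eq_bot_iff]
    intro A hA
    rw [Subgroup.mem_bot]
    rcases center_sl_two F A hA with h | h
    · exact h
    · rw [h]; exact Subtype.ext (by ext i j; by_cases hij : i = j <;> simp [h1, hij])
  obtain ⟨a, -, ha, -⟩ := Linear.exists_torus (F := F) m hm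
  refine ⟨QuotientGroup.mk' _ a, ?_⟩
  rw [orderOf_injective _ ?_, ha]
  rw [← MonoidHom.ker_eq_bot_iff, QuotientGroup.ker_mk', hbot]

theorem exists_orderOf_psl_odd (hF : Odd (Fintype.card F)) (m : ℕ)
    (hm : m = Fintype.card F - 1 ∨ m = Fintype.card F + 1) :
    ∃ x : ProjectiveSpecialLinearGroup (Fin 2) F, orderOf x = m / 2 := by
  obtain ⟨a, t, ha, htt, hta⟩ := Linear.exists_torus (F := F) m hm
  have hcard := Fintype.one_lt_card (α := F)
  obtain ⟨d, hd⟩ : 2 ∣ m := by obtain ⟨k, hk⟩ := hF; omega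
  have hd0 : d ≠ 0 := by obtain ⟨k, hk⟩ := hF; omega
  have h2 : (2 : F) ≠ 0 := by
    intro h
    obtain ⟨p, hp⟩ := CharP.exists F
    obtain ⟨n, hp', hn⟩ := FiniteField.card F p
    have h2' : ((2 : ℕ) : F) = 0 := by simpa using h
    rw [CharP.cast_eq_zero_iff F p] at h2'
    have := (Nat.prime_dvd_prime_iff_eq hp' Nat.prime_two).1 h2'
    rw [hn, this] at hF
    exact (Nat.not_odd_iff_even.2 ((Nat.even_pow' n.pos.ne').2 even_two)) hF
  have hneg : (-1 : SL(2, F)) ≠ 1 := by
    intro h
    have := congrArg (fun A : SL(2, F) => (A : Matrix (Fin 2) (Fin 2) F) 0 0) h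
    simp at this
    exact h2 (by linear_combination -this)
  have hmid : a ^ d = -1 := by
    have h3 : (a ^ d) * (a ^ d) = 1 := by rw [← pow_add, ← two_mul, ← hd, ← ha, pow_orderOf_eq_one]
    have h4 : a ^ d ≠ 1 := fun h => by
      have := Nat.le_of_dvd (Nat.pos_of_ne_zero hd0) (ha ▸ orderOf_dvd_of_pow_eq_one h)
      omega
    -- an element squaring to one is central
    set M : Matrix (Fin 2) (Fin 2) F := ((a ^ d : SL(2, F)) : Matrix (Fin 2) (Fin 2) F) with hM
    have hadj : Matrix.adjugate M = M := by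
      have h5 : (a ^ d)⁻¹ = a ^ d := inv_eq_of_mul_eq_one_left h3
      have := congrArg (fun A : SL(2, F) => (A : Matrix (Fin 2) (Fin 2) F)) h5
      rw [Matrix.SpecialLinearGroup.coe_inv] at this
      exact this
    rw [Matrix.adjugate_fin_two] at hadj
    have e00 := congrFun (congrFun hadj 0) 0
    have e01 := congrFun (congrFun hadj 0) 1
    have e10 := congrFun (congrFun hadj 1) 0
    simp at e00 e01 e10
    have hb : M 0 1 = 0 := by
      have : (2 : F) * M 0 1 = 0 := by linear_combination -e01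
      simpa [h2] using this
    have hc : M 1 0 = 0 := by
      have : (2 : F) * M 1 0 = 0 := by linear_combination -e10
      simpa [h2] using this
    have hdet : M.det = 1 := (a ^ d).2
    rw [Matrix.det_fin_two, hb, hc, e00, mul_zero, sub_zero] at hdet
    rcases mul_self_eq_one_iff.1 hdet with h6 | h6
    · refine absurd (Subtype.ext ?_) h4
      ext i j
      fin_cases i <;> fin_cases j <;> simp [← hM, hb, hc, h6, e00]
    · refine Subtype.ext ?_
      ext i j
      fin_cases i <;> fin_cases j <;> simp [← hM, hb, hc, h6, e00]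
  refine ⟨QuotientGroup.mk' _ a, ?_⟩
  rw [orderOf_eq_iff (by omega)]
  refine ⟨?_, fun k hk hk0 => ?_⟩
  · rw [← map_pow, QuotientGroup.mk'_apply, QuotientGroup.eq_one_iff, show m / 2 = d by omega, hmid]
    rw [Matrix.SpecialLinearGroup.mem_center_iff]
    refine ⟨-1, by simp, ?_⟩
    ext i j; fin_cases i <;> fin_cases j <;> simp
  · intro h
    rw [← map_pow, QuotientGroup.mk'_apply, QuotientGroup.eq_one_iff] at h
    have h7 : a ^ (2 * k) = 1 := by
      rcases center_sl_two F _ h with h | h
      · rw [two_mul, pow_add, h, one_mul]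
      · rw [two_mul, pow_add, h, neg_mul_neg, one_mul]
    have := Nat.le_of_dvd (by omega) (ha ▸ orderOf_dvd_of_pow_eq_one h7)
    omega

end Cfsg.Agent.H73.TwoP
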